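/-
A doubly transitive action on at least three points gives a (B,N)-pair of rank one.
-/
import Cfsg.Agent.Lib.BN.Basic

set_option autoImplicit false

namespace Cfsg.Agent.Lib.BN

open Cfsg
open scoped Pointwise

variable {G Ω : Type*} [Group G] [MulAction G Ω]

theorem exists_bnPair_of_two_transitive
    (h2 : MulAction.IsMultiplyPretransitive G Ω 2) {x y z : Ω} (hxy : x ≠ y) (hyz : y ≠ z)
    (hxz : x ≠ z) :
    ∃ P : Cfsg.BNPair G, P.B = MulAction.stabilizer G x ∧
      P.N = MulAction.stabilizer G ({x, y} : Set Ω) ∧ P.rank = 1 := by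
  classical
  have h2' : ∀ {a b c d : Ω} (_ : a ≠ b) (_ : c ≠ d), ∃ g : G, g • a = c ∧ g • b = d :=
    MulAction.is_two_pretransitive_iff.1 h2
  obtain ⟨s, hsx, hsy⟩ := h2' hxy hxy.symm
  set B : Subgroup G := MulAction.stabilizer G x with hB
  set N : Subgroup G := MulAction.stabilizer G ({x, y} : Set Ω) with hN
  have memB : ∀ g, g ∈ B ↔ g • x = x := fun g => MulAction.mem_stabilizer_iff
  have memN : ∀ g, g ∈ N ↔ g • ({x, y} : Set Ω) = {x, y} := fun g => MulAction.mem_stabilizer_iff
  have hsN : s ∈ N := by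
    rw [memN, Set.smul_set_insert, Set.smul_set_singleton, hsx, hsy]
    exact Set.pair_comm _ _
  -- elements of `N` preserve `{x,y}`
  have hNcase : ∀ g ∈ N, (g • x = x ∧ g • y = y) ∨ (g • x = y ∧ g • y = x) := by
    intro g hg
    have h1 := (memN g).1 hg
    have hx : g • x ∈ ({x, y} : Set Ω) := by rw [← h1]; exact Set.smul_mem_smul_set (by simp)
    have hy : g • y ∈ ({x, y} : Set Ω) := by rw [← h1]; exact Set.smul_mem_smul_set (by simp)
    have hinj : g • x ≠ g • y := fun e => hxy (MulAction.injective g e)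
    simp only [Set.mem_insert_iff, Set.mem_singleton_iff] at hx hy
    rcases hx with hx | hx <;> rcases hy with hy | hy
    · exact absurd (hx.trans hy.symm) hinj
    · exact Or.inl ⟨hx, hy⟩
    · exact Or.inr ⟨hx, hy⟩
    · exact absurd (hx.trans hy.symm) hinj
  have hNmk : ∀ g : G, (g • x = x ∧ g • y = y) ∨ (g • x = y ∧ g • y = x) → g ∈ N := by
    intro g hg
    rw [memN, Set.smul_set_insert, Set.smul_set_singleton]
    rcases hg with ⟨h1, h2⟩ | ⟨h1, h2⟩
    · rw [h1, h2]
    · rw [h1, h2]; exact Set.pair_comm _ _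
  have hss : (s * s) • x = x := by rw [mul_smul, hsx, hsy]
  have hss' : (s * s) • y = y := by rw [mul_smul, hsy, hsx]
  have hTcase : ∀ t ∈ B ⊓ N, t • x = x ∧ t • y = y := by
    rintro t ⟨ht1, ht2⟩
    have h1 : t • x = x := (memB t).1 ht1
    rcases hNcase t ht2 with h | h
    · exact h
    · exact absurd (h1.symm.trans h.1) hxy
  -- every element outside `B` is in `B s B`
  have hunion : ∀ g : G, g • x = x ∨ ∃ b1 ∈ B, ∃ b2 ∈ B, g = b1 * s * b2 := by
    intro g
    by_cases hg : g • x = x
    · exact Or.inl hg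
    · right
      obtain ⟨b, hb1, hb2⟩ := h2' (a := x) (b := g • x) (c := x) (d := y) (Ne.symm hg) hxy
      refine ⟨b⁻¹, (memB _).2 (by rw [inv_smul_eq_iff, hb1]), s⁻¹ * (b * g), ?_, by group⟩
      rw [memB, mul_smul, mul_smul, hb2, inv_smul_eq_iff, hsx]
  have hCs : ∀ g : G, g • x ≠ x → g ∈ DoubleCoset.doubleCoset s (B : Set G) B := by
    intro g hg
    rcases hunion g with h | ⟨b1, h1, b2, h3, e⟩
    · exact absurd h hg
    · exact DoubleCoset.mem_doubleCoset.2 ⟨b1, h1, b2, h3, e⟩
  have hCB : ∀ g : G, g • x = x → ∀ n : G, n • x = x → g ∈ DoubleCoset.doubleCoset n (B : Set G) B := by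
    intro g hg n hn
    refine DoubleCoset.mem_doubleCoset.2 ⟨g * n⁻¹, (memB _).2 ?_, 1, B.one_mem, by group⟩
    rw [mul_smul, inv_smul_eq_iff.2 hn.symm, hg]
  have hCs' : ∀ g n : G, g • x ≠ x → n • x = y → g ∈ DoubleCoset.doubleCoset n (B : Set G) B := by
    intro g n hg hn
    have h1 := hCs g hg
    have hn' : n • x ≠ x := by rw [hn]; exact hxy.symm
    have h3 := hCs n hn'
    have := DoubleCoset.doubleCoset_eq_of_mem h3
    rw [this]
    exact h1
  refine ⟨{ B := B, N := N, S := {s}, sup_eq_top := ?_, conj_mem := ?_, subset := ?_,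
            sq_mem := ?_, inj := ?_, closure_sup := ?_, mul_mem_union := ?_, conj_ne := ?_ },
          rfl, rfl, ?_⟩
  · rw [eq_top_iff]
    intro g _
    rcases hunion g with h | ⟨b1, h1, b2, h3, rfl⟩
    · exact (le_sup_left : B ≤ B ⊔ N) ((memB g).2 h)
    · exact mul_mem (mul_mem ((le_sup_left : B ≤ B ⊔ N) h1) ((le_sup_right : N ≤ B ⊔ N) hsN))
        ((le_sup_left : B ≤ B ⊔ N) h3)
  · intro n hn t ht
    obtain ⟨ht1, ht2⟩ := hTcase t ht
    rw [memB, mul_smul, mul_smul]
    rcases hNcase n hn with ⟨h1, h3⟩ | ⟨h1, h3⟩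
    · rw [inv_smul_eq_iff.2 h1.symm, ht1, h1]
    · rw [inv_smul_eq_iff.2 h3.symm, ht2, h3]
  · intro a ha
    have ha : a = s := ha
    rw [ha]; exact hsN
  · intro a ha
    have ha : a = s := ha
    rw [ha]; exact (memB _).2 hss
  · intro a ha c hc _
    have ha : a = s := ha
    have hc : c = s := hc
    rw [ha, hc]
  · apply le_antisymm
    · refine sup_le ?_ inf_le_right
      refine (Subgroup.closure_le _).2 ?_
      intro a ha
      have ha : a = s := ha
      rw [ha]; exact hsN
    · intro n hn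
      rcases hNcase n hn with h | h
      · exact (le_sup_right : B ⊓ N ≤ _) ⟨(memB _).2 h.1, hn⟩
      · have h3 : s⁻¹ * n ∈ B ⊓ N := by
          refine ⟨(memB _).2 ?_, N.mul_mem (N.inv_mem hsN) hn⟩
          rw [mul_smul, h.1, inv_smul_eq_iff, hsx]
        have e : n = s * (s⁻¹ * n) := by group
        rw [e]
        exact mul_mem ((le_sup_left : Subgroup.closure {s} ≤ _) (Subgroup.mem_closure_singleton_self s))
          ((le_sup_right : B ⊓ N ≤ _) h3)
  · intro a ha n hn b hb
    have ha : a = s := ha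
    rw [ha]
    have hbx : b • x = x := (memB b).1 hb
    rcases hNcase n hn with ⟨h1, h3⟩ | ⟨h1, h3⟩
    · -- `n` fixes `x`
      by_cases hc : (s * b * n) • x = x
      · exact Or.inr (hCB _ hc n h1)
      · left
        refine hCs' _ _ hc ?_
        rw [mul_smul, h1, hsx]
    · -- `n` moves `x` to `y`
      by_cases hc : (s * b * n) • x = x
      · left
        refine hCB _ hc _ ?_
        rw [mul_smul, h1, hsy]
      · right
        exact hCs' _ _ hc h1
  · intro a ha himg
    have ha : a = s := ha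
    rw [ha] at himg
    -- pick `b` sending `y` to `z`
    obtain ⟨b, hb1, hb2⟩ := h2' hxy hxz
    have hb : b ∈ B := (memB _).2 hb1
    have h4 : s * b * s ∈ (B : Set G) := by
      rw [← himg]; exact ⟨b, hb, rfl⟩
    have h5 : (s * b * s) • x = x := (memB _).1 h4
    rw [mul_smul, mul_smul, hsx, hb2] at h5
    have h6 : z = y := by
      have := congrArg (fun w => s⁻¹ • w) h5
      simp only [inv_smul_smul] at this
      rw [this, inv_smul_eq_iff, hsy]
    exact hyz h6.symm
  · show Nat.card ({s} : Set G) = 1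
    simp

end Cfsg.Agent.Lib.BN
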